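import Mathlib
import Cfsg.Agent.Lib.Helper93.M11U.Defs
import Cfsg.Agent.Lib.Helper91.M11Inv

/-!
# S0420 package [Y0ISO]: `Y0 ≃* S₅`

A group of order 120 with a simple normal subgroup `X` of order 60 whose centralizer lies in `X`
is isomorphic to `S₅` (action on the cosets of the normalizer of a Sylow 2-subgroup of `X`).
-/

set_option autoImplicit false
set_option linter.unusedVariables false
set_option linter.style.haveILetI false

namespace Cfsg.Agent.Lib.Helper79.M11U

open Cfsg.Agent.Lib.Helper93.M11U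

universe u

/-- A simple group with a proper subgroup of index `k` has order dividing `k!`. -/
theorem simple_card_dvd_factorial {X : Type*} [Group X] [Finite X] [IsSimpleGroup X]
    (H : Subgroup X) (hH : H ≠ ⊤) : Nat.card X ∣ (H.index).factorial := by
  have hinj : Function.Injective (MulAction.toPermHom X (X ⧸ H)) := by
    rw [← MonoidHom.ker_eq_bot_iff, ← Subgroup.normalCore_eq_ker]
    rcases (H.normalCore_normal).eq_bot_or_eq_top with h | h
    · exact h
    · exact absurd (top_le_iff.mp (h ▸ Subgroup.normalCore_le H)) hH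
  have := Subgroup.card_dvd_of_injective _ hinj
  rwa [Nat.card_perm] at this

/-- A simple group of order 60 has exactly five Sylow 2-subgroups. -/
theorem card_sylow_two_of_simple_sixty {X : Type*} [Group X] [Finite X] [IsSimpleGroup X]
    (h60 : Nat.card X = 60) : Nat.card (Sylow 2 X) = 5 := by
  haveI : Fact (Nat.Prime 2) := ⟨Nat.prime_two⟩
  obtain ⟨V⟩ : Nonempty (Sylow 2 X) := inferInstance
  have hV4 : Nat.card (V : Subgroup X) = 4 := by
    obtain ⟨k, hk⟩ := IsPGroup.iff_card.mp V.isPGroup'
    have hidx : Nat.card (V : Subgroup X) * (V : Subgroup X).index = 60 := by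
      rw [Subgroup.card_mul_index, h60]
    have hnd := V.not_dvd_index
    have hpos : 0 < (V : Subgroup X).index := Nat.pos_of_ne_zero Subgroup.index_ne_zero_of_finite
    rw [hk] at hidx ⊢
    have hk6 : k < 6 := by
      by_contra hc
      have : 2 ^ 6 ≤ 2 ^ k := Nat.pow_le_pow_right (by norm_num) (by omega)
      nlinarith
    interval_cases k <;> omega
  have hidx15 : (V : Subgroup X).index = 15 := by
    have := Subgroup.card_mul_index (V : Subgroup X)
    rw [hV4, h60] at this
    omega
  have hdvd : Nat.card (Sylow 2 X) ∣ 15 := by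
    rw [← hidx15]
    exact V.card_dvd_index
  have hmod : Nat.card (Sylow 2 X) % 2 = 1 := card_sylow_modEq_one 2 X
  have hN : Nat.card (Sylow 2 X) = (Subgroup.normalizer ((V : Subgroup X) : Set X)).index :=
    V.card_eq_index_normalizer
  have hNcard := Subgroup.card_mul_index (Subgroup.normalizer ((V : Subgroup X) : Set X))
  rw [h60] at hNcard
  -- not 1
  have h1 : Nat.card (Sylow 2 X) ≠ 1 := by
    intro h
    rw [hN] at h
    have htop : Subgroup.normalizer ((V : Subgroup X) : Set X) = ⊤ := Subgroup.index_eq_one.mp h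
    have hVn : (V : Subgroup X).Normal := Subgroup.normalizer_eq_top_iff.mp htop
    rcases hVn.eq_bot_or_eq_top with hb | ht
    · rw [hb, Subgroup.card_bot] at hV4
      omega
    · rw [ht, Subgroup.card_top, h60] at hV4
      omega
  -- not 3
  have h3 : Nat.card (Sylow 2 X) ≠ 3 := by
    intro h
    rw [hN] at h
    have hne : Subgroup.normalizer ((V : Subgroup X) : Set X) ≠ ⊤ := by
      intro ht
      rw [ht, Subgroup.index_top] at h
      omega
    have := simple_card_dvd_factorial _ hne
    rw [h, h60] at this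
    revert this
    decide
  -- not 15
  have h15 : Nat.card (Sylow 2 X) ≠ 15 := by
    intro h
    rw [hN] at h
    rw [h] at hNcard
    have hN4 : Nat.card (Subgroup.normalizer ((V : Subgroup X) : Set X)) = 4 := by omega
    have hNV : Subgroup.normalizer ((V : Subgroup X) : Set X) = (V : Subgroup X) :=
      (Subgroup.eq_of_le_of_card_ge Subgroup.le_normalizer (by rw [hN4, hV4])).symm
    have hcomm : ∀ a b : ↥(V : Subgroup X), a * b = b * a :=
      IsPGroup.commutative_of_card_eq_prime_sq (p := 2) (by rw [hV4]; rfl)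
    have hP : Subgroup.normalizer ((V : Subgroup X) : Set X) ≤
        Subgroup.centralizer ((V : Subgroup X) : Set X) := by
      rw [hNV]
      intro x hx
      rw [Subgroup.mem_centralizer_iff]
      intro y hy
      exact congrArg Subtype.val (hcomm ⟨y, hy⟩ ⟨x, hx⟩)
    have hcompl := MonoidHom.ker_transferSylow_isComplement' V hP
    have hcm := hcompl.card_mul
    rw [hV4, h60] at hcm
    have hK15 : Nat.card (MonoidHom.transferSylow V hP).ker = 15 := by omega
    rcases (MonoidHom.normal_ker (MonoidHom.transferSylow V hP)).eq_bot_or_eq_top with hb | ht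
    · rw [hb, Subgroup.card_bot] at hK15
      omega
    · rw [ht, Subgroup.card_top, h60] at hK15
      omega
  have hle : Nat.card (Sylow 2 X) ≤ 15 := Nat.le_of_dvd (by norm_num) hdvd
  obtain ⟨n, hn⟩ : ∃ n, n = Nat.card (Sylow 2 X) := ⟨_, rfl⟩
  rw [← hn] at hdvd hmod h1 h3 h15 hle ⊢
  interval_cases n <;> omega

/-- A group of order 120 with a simple normal subgroup of order 60 containing its centralizer is
isomorphic to `S₅`. -/
theorem equiv_perm_five_of_simple_index_two {Y : Type u} [Group Y] [Finite Y] (X : Subgroup Y)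
    [hXn : X.Normal] [IsSimpleGroup ↥X] (hX : Nat.card ↥X = 60) (hY : Nat.card Y = 120)
    (hcent : ∀ z : Y, (∀ x ∈ X, z * x = x * z) → z ∈ X) :
    Nonempty (Y ≃* Equiv.Perm (Fin 5)) := by
  haveI : Fact (Nat.Prime 2) := ⟨Nat.prime_two⟩
  obtain ⟨V⟩ : Nonempty (Sylow 2 ↥X) := inferInstance
  have hn2 := card_sylow_two_of_simple_sixty (X := ↥X) hX
  have hNV : (Subgroup.normalizer ((V : Subgroup ↥X) : Set ↥X)).index = 5 :=
    (V.card_eq_index_normalizer).symm.trans hn2
  have hNV12 : Nat.card (Subgroup.normalizer ((V : Subgroup ↥X) : Set ↥X)) = 12 := by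
    have := Subgroup.card_mul_index (Subgroup.normalizer ((V : Subgroup ↥X) : Set ↥X))
    rw [hNV, hX] at this
    omega
  obtain ⟨V', hV'⟩ : ∃ V' : Subgroup Y, V' = (V : Subgroup ↥X).map X.subtype := ⟨_, rfl⟩
  obtain ⟨L, hL⟩ : ∃ L : Subgroup Y, L = Subgroup.normalizer (V' : Set Y) := ⟨_, rfl⟩
  have hfrat : L ⊔ X = ⊤ := by
    rw [hL, hV']
    exact Sylow.normalizer_sup_eq_top V
  have hV'X : V' ≤ X := by
    rw [hV']
    rintro _ ⟨x, _, rfl⟩
    exact x.2
  have hsub : V'.subgroupOf X = (V : Subgroup ↥X) := by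
    rw [hV']
    ext x
    rw [Subgroup.mem_subgroupOf]
    constructor
    · rintro ⟨y, hy, hxy⟩
      have : y = x := Subtype.ext hxy
      exact this ▸ hy
    · intro hx
      exact ⟨x, hx, rfl⟩
  have hLX : L.subgroupOf X = Subgroup.normalizer ((V : Subgroup ↥X) : Set ↥X) := by
    rw [hL, Subgroup.subgroupOf_normalizer_eq hV'X, hsub]
  have hLX12 : Nat.card ↥(L.subgroupOf X) = 12 := by
    rw [hLX]
    exact hNV12
  have hXidx : X.index = 2 := by
    have := Subgroup.card_mul_index X
    rw [hX, hY] at this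
    omega
  have hrel : X.relIndex L = 2 := by
    have := Subgroup.relIndex_sup_right L X
    rw [hfrat, Subgroup.relIndex_top_right] at this
    rw [← this]
    exact hXidx
  have hL24 : Nat.card ↥L = 24 := by
    have h1 := Subgroup.card_mul_index (X.subgroupOf L)
    have h2 : (X.subgroupOf L).index = X.relIndex L := rfl
    have h3 : Nat.card ↥(X.subgroupOf L) = Nat.card ↥(L.subgroupOf X) := by
      rw [← Subgroup.inf_subgroupOf_right X L, ← Subgroup.inf_subgroupOf_right L X,
        Nat.card_congr (Subgroup.subgroupOfEquivOfLe (inf_le_right : X ⊓ L ≤ L)).toEquiv,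
        Nat.card_congr (Subgroup.subgroupOfEquivOfLe (inf_le_right : L ⊓ X ≤ X)).toEquiv, inf_comm]
    rw [h2, hrel, h3, hLX12] at h1
    omega
  have hLidx : L.index = 5 := by
    have := Subgroup.card_mul_index L
    rw [hL24, hY] at this
    omega
  have hcore : L.normalCore = ⊥ := by
    have hRn : (L.normalCore).Normal := Subgroup.normalCore_normal L
    have hRX : L.normalCore.subgroupOf X = ⊥ := by
      haveI : (L.normalCore.subgroupOf X).Normal := hRn.subgroupOf X
      rcases Subgroup.Normal.eq_bot_or_eq_top (H := L.normalCore.subgroupOf X) inferInstance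
        with h | h
      · exact h
      · exfalso
        have hXL : X ≤ L := by
          intro x hx
          have : (⟨x, hx⟩ : ↥X) ∈ L.normalCore.subgroupOf X := by
            rw [h]
            trivial
          exact Subgroup.normalCore_le L (Subgroup.mem_subgroupOf.mp this)
        have := Subgroup.card_le_of_le hXL
        rw [hX, hL24] at this
        omega
    have hdis : Disjoint L.normalCore X := Subgroup.subgroupOf_eq_bot.mp hRX
    rw [eq_bot_iff]
    intro z hz
    have hzX : z ∈ X := hcent z (fun x hx =>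
      (Subgroup.commute_of_normal_of_disjoint _ _ hRn hXn hdis z x hz hx).eq)
    have : z ∈ L.normalCore ⊓ X := ⟨hz, hzX⟩
    rw [hdis.eq_bot] at this
    exact this
  have hinj : Function.Injective (MulAction.toPermHom Y (Y ⧸ L)) := by
    rw [← MonoidHom.ker_eq_bot_iff, ← Subgroup.normalCore_eq_ker]
    exact hcore
  have hcardQ : Nat.card (Y ⧸ L) = 5 := hLidx
  have hbij : Function.Bijective (MulAction.toPermHom Y (Y ⧸ L)) := by
    rw [Nat.bijective_iff_injective_and_card]
    refine ⟨hinj, ?_⟩
    rw [Nat.card_perm, hcardQ, hY]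
    rfl
  exact ⟨(MulEquiv.ofBijective _ hbij).trans
    (Equiv.permCongrHom (Finite.equivFinOfCardEq hcardQ))⟩

theorem pkgY0Iso : Cfsg.Agent.Lib.Helper93.M11U.PkgY0Iso.{u} := by
  intro G _ _ T hS hG C hX0 hY0
  obtain ⟨⟨e⟩, hX60, hfX, huuX, huX⟩ := hX0
  obtain ⟨hY120, hXY, hNFY, hNF20⟩ := hY0
  haveI := hS
  haveI : Fact (Nat.Prime 5) := ⟨by norm_num⟩
  have hzf : Nat.card (Subgroup.zpowers C.f) = 5 := by rw [Nat.card_zpowers, C.hf]
  have hzp : IsPGroup 5 ↥(Subgroup.zpowers C.f) :=
    IsPGroup.of_card (p := 5) (n := 1) (by rw [hzf]; rfl)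
  obtain ⟨P, hP⟩ := hzp.exists_le_sylow
  obtain ⟨hP5, -, hCP, -⟩ := Cfsg.Agent.Lib.Helper91.M11.sylow5_full hG P
  have hPeq : Subgroup.zpowers C.f = (P : Subgroup G) :=
    Subgroup.eq_of_le_of_card_ge hP (by rw [hP5, hzf])
  have hXc : Nat.card ↥((X0 C).subgroupOf (Y0 C)) = 60 := by
    rw [Nat.card_congr (Subgroup.subgroupOfEquivOfLe hXY).toEquiv, hX60]
  haveI hXn : ((X0 C).subgroupOf (Y0 C)).Normal := by
    apply Subgroup.normal_of_index_eq_two
    have := Subgroup.card_mul_index ((X0 C).subgroupOf (Y0 C))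
    rw [hXc, hY120] at this
    omega
  haveI : IsSimpleGroup ↥((X0 C).subgroupOf (Y0 C)) := by
    have e' : ↥((X0 C).subgroupOf (Y0 C)) ≃* alternatingGroup (Fin 5) :=
      (Subgroup.subgroupOfEquivOfLe hXY).trans e
    exact e'.isSimpleGroup_congr.mpr alternatingGroup.isSimpleGroup_five
  refine equiv_perm_five_of_simple_index_two ((X0 C).subgroupOf (Y0 C)) hXc hY120 ?_
  intro z hz
  rw [Subgroup.mem_subgroupOf]
  have hfY : C.f ∈ Y0 C := hXY hfX
  have h1 := hz ⟨C.f, hfY⟩ (Subgroup.mem_subgroupOf.mpr hfX)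
  have h2 : (z : G) * C.f = C.f * (z : G) := congrArg Subtype.val h1
  have h3 : (z : G) ∈ Subgroup.centralizer ((P : Subgroup G) : Set G) := by
    rw [← hPeq, Subgroup.mem_centralizer_iff]
    intro y hy
    obtain ⟨k, rfl⟩ := Subgroup.mem_zpowers_iff.mp hy
    exact (Commute.zpow_left (show Commute C.f (z : G) from h2.symm) k).eq
  rw [hCP, ← hPeq] at h3
  exact (Subgroup.zpowers_le.mpr hfX) h3

end Cfsg.Agent.Lib.Helper79.M11U
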